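import Cfsg.Agent.Lib.ThreeT.F24.InvD
import Cfsg.Agent.Lib.ThreeT.M24d
import Cfsg.Agent.Lib.PermComp.OutP.M23T.Main

/-!
# Type M(24): the product of three commuting members (combinatorics)

A member commuting with `a b c` commutes with each of `a`, `b`, `c`; the triple is determined by its product; all ordered triples
are conjugate; and the subgroup `L ∩ C(a, b, c)` is the centralizer of type M(23) one level down.
-/

set_option autoImplicit false
set_option linter.unusedSectionVars false
set_option linter.unusedVariables false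
set_option linter.style.longLine false
set_option linter.unusedSimpArgs false
set_option linter.unnecessarySimpa false
set_option linter.style.haveILetI false
set_option maxRecDepth 100000

namespace Cfsg.Agent.Lib.ThreeT.F24.C3

open Cfsg Cfsg.Agent.Lib.ThreeT.Basic Cfsg.Agent.Lib.ThreeT.Class Cfsg.Agent.Lib.ThreeT.Relations
open Cfsg.Agent.Lib.ThreeT.Rank3 Cfsg.Agent.Lib.ThreeT.Descent Cfsg.Agent.Lib.ThreeT.NoSix
open Cfsg.Agent.Lib.ThreeT.M23 Cfsg.Agent.Lib.ThreeT.M22 Cfsg.Agent.Lib.ThreeT.M24
open Cfsg.Agent.Lib.ThreeT.F24.InvD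
open Cfsg.Agent.Lib
open scoped commutatorElement

section words

variable {G : Type*} [Group G]

theorem sq_word {t a b : G} (hab : a * b = b * a) (hta : t * a * t = a * t * a) (htb : t * b * t = b * t * b) :
    (t * a * b) * (t * a * b) = a * t * a * b * t * a := by
  calc (t * a * b) * (t * a * b) = t * a * (b * t * (a * b)) := by group
    _ = t * a * (b * t * (b * a)) := by rw [hab]
    _ = t * a * ((b * t * b) * a) := by group
    _ = t * a * ((t * b * t) * a) := by rw [htb]
    _ = (t * a * t) * b * t * a := by group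
    _ = (a * t * a) * b * t * a := by rw [hta]

theorem pow_four_word {t a b : G} (ht : t * t = 1) (ha : a * a = 1) (hb : b * b = 1) (hab : a * b = b * a)
    (hta : t * a * t = a * t * a) (htb : t * b * t = b * t * b) : (t * a * b) ^ 4 = 1 := by
  have h1 := sq_word hab hta htb
  have e : (t * a * b) ^ 4 = ((t * a * b) * (t * a * b)) * ((t * a * b) * (t * a * b)) := by
    simp only [pow_succ, pow_zero, one_mul, mul_assoc]
  rw [e, h1]
  have h2 : a * b * a * b = 1 := by
    calc a * b * a * b = a * (b * a) * b := by group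
      _ = a * (a * b) * b := by rw [hab]
      _ = (a * a) * (b * b) := by group
      _ = 1 := by rw [ha, hb, one_mul]
  calc a * t * a * b * t * a * (a * t * a * b * t * a) = a * t * a * b * t * (a * a) * t * a * b * t * a := by group
    _ = a * t * a * b * (t * t) * a * b * t * a := by rw [ha]; group
    _ = a * t * (a * b * a * b) * t * a := by rw [ht]; group
    _ = a * (t * t) * a := by rw [h2]; group
    _ = 1 := by rw [ht, mul_one, ha]

end words

section three

variable {G : Type*} [Group G] {D : Set G}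

/-- **A member commuting with the product of three commuting members commutes with each.** -/
theorem comm_three (hD : IsThreeTranspositionSet D) {a b c t : G} (ha : a ∈ D) (hb : b ∈ D) (hc : c ∈ D) (ht : t ∈ D)
    (hab : a ≠ b) (hac : a ≠ c) (hbc : b ≠ c) (cab : Commute a b) (cac : Commute a c) (cbc : Commute b c)
    (h : Commute t (a * b * c)) : Commute t a ∧ Commute t b ∧ Commute t c := by
  have haa := mul_self_of_mem hD ha
  have hbb := mul_self_of_mem hD hb
  have hcc := mul_self_of_mem hD hc
  have htt := mul_self_of_mem hD ht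
  by_cases tc : Commute t c
  · have e : a * b = (a * b * c) * c := by rw [mul_assoc, hcc, mul_one]
    have h1 : Commute t (a * b) := by
      rw [e]
      exact h.mul_right tc
    obtain ⟨h2, h3⟩ := comm_two hD ha hb ht hab cab h1
    exact ⟨h2, h3, tc⟩
  by_cases ta : Commute t a
  · have e : b * c = a * (a * b * c) := by
      rw [mul_assoc a b c, ← mul_assoc a a, haa, one_mul]
    have h1 : Commute t (b * c) := by
      rw [e]
      exact ta.mul_right h
    obtain ⟨h2, h3⟩ := comm_two hD hb hc ht hbc cbc h1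
    exact ⟨ta, h2, h3⟩
  by_cases tb : Commute t b
  · have e : a * c = (a * b * c) * b := by
      calc a * c = a * (b * b) * c := by rw [hbb, mul_one]
        _ = a * b * (b * c) := by group
        _ = a * b * (c * b) := by rw [cbc.eq]
        _ = (a * b * c) * b := by group
    have h1 : Commute t (a * c) := by
      rw [e]
      exact h.mul_right tb
    obtain ⟨h2, h3⟩ := comm_two hD ha hc ht hac cac h1
    exact ⟨h2, tb, h3⟩
  exfalso
  have hta := braid hD ht ha ta
  have htb := braid hD ht hb tb
  have htc := braid hD ht hc tc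
  set x := a * b * c with hx
  have hxb : Commute x b := by
    rw [hx]
    exact ((cab.mul_left (Commute.refl b)).mul_left cbc.symm)
  have hxa' : Commute x a := by
    rw [hx]
    exact (((Commute.refl a).mul_left cab.symm).mul_left cac.symm)
  have hxc : Commute x c := by
    rw [hx]
    exact ((cac.mul_left cbc).mul_left (Commute.refl c))
  have hxx : x * x = 1 := by
    have e : x * x = (a * b) * ((a * b) * c) * c := by
      calc x * x = (a * b) * (c * (a * b)) * c := by rw [hx]; group
        _ = (a * b) * ((a * b) * c) * c := by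
          have : c * (a * b) = (a * b) * c := ((cac.mul_left cbc)).symm.eq
          rw [this]
    have h2 : a * b * (a * b) = 1 := by
      calc a * b * (a * b) = a * (b * a) * b := by group
        _ = a * (a * b) * b := by rw [cab.symm.eq]
        _ = (a * a) * (b * b) := by group
        _ = 1 := by rw [haa, hbb, one_mul]
    rw [e]
    calc a * b * (a * b * c) * c = (a * b * (a * b)) * (c * c) := by group
      _ = 1 := by rw [h2, hcc, one_mul]
  have hc_eq : c = a * b * x := by
    have h2 : a * b * (a * b) = 1 := by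
      calc a * b * (a * b) = a * (b * a) * b := by group
        _ = a * (a * b) * b := by rw [cab.symm.eq]
        _ = (a * a) * (b * b) := by group
        _ = 1 := by rw [haa, hbb, one_mul]
    rw [hx]
    calc c = (a * b * (a * b)) * c := by rw [h2, one_mul]
      _ = a * b * (a * b * c) := by group
  set y := t * a * b with hy
  have hyx : Commute y x := by
    rw [hy]
    exact ((h.symm.symm.mul_left hxa'.symm).mul_left hxb.symm)
  have htc3 : (t * c) ^ 3 = 1 := by
    have e : (t * c) ^ 3 = (t * c * t) * (c * t * c) := by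
      simp only [pow_succ, pow_zero, one_mul, mul_assoc]
    rw [e, ← htc]
    calc t * c * t * (t * c * t) = t * c * (t * t) * c * t := by group
      _ = t * (c * c) * t := by rw [htt]; group
      _ = 1 := by rw [hcc, mul_one, htt]
  have hyx3 : y ^ 3 * x = 1 := by
    have e1 : t * c = y * x := by
      rw [hy]
      conv_lhs => rw [hc_eq]
      group
    rw [e1, hyx.mul_pow] at htc3
    have e2 : x ^ 3 = x := by
      calc x ^ 3 = (x * x) * x := by simp only [pow_succ, pow_zero, one_mul]
        _ = x := by rw [hxx, one_mul]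
    rwa [e2] at htc3
  have hy3 : y ^ 3 = x := by
    have h2 : y ^ 3 = x⁻¹ := eq_inv_of_mul_eq_one_left hyx3
    rw [h2]
    exact inv_eq_of_mul_eq_one_left hxx
  have hy4 : y ^ 4 = 1 := pow_four_word htt haa hbb cab.eq hta htb
  have hy2 : y ^ 2 = 1 := by
    have h6 : y ^ 6 = 1 := by
      have e : y ^ 6 = y ^ 3 * y ^ 3 := by rw [← pow_add]
      rw [e, hy3, hxx]
    have e : y ^ 6 = y ^ 4 * y ^ 2 := by rw [← pow_add]
    rw [e, hy4, one_mul] at h6
    exact h6
  apply ta
  refine (comm_two hD ha hb ht hab cab ?_).1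
  -- `t` commutes with `a * b`
  have h3 : t * (a * b) * (t * (a * b)) = 1 := by
    have e : t * (a * b) * (t * (a * b)) = y ^ 2 := by
      rw [hy, pow_two]
      simp only [mul_assoc]
    rw [e, hy2]
  have h4 : a * b * (a * b) = 1 := by
    calc a * b * (a * b) = a * (b * a) * b := by group
      _ = a * (a * b) * b := by rw [cab.symm.eq]
      _ = (a * a) * (b * b) := by group
      _ = 1 := by rw [haa, hbb, one_mul]
  show t * (a * b) = (a * b) * t
  calc t * (a * b) = t * (a * b) * (t * (a * b) * (t * (a * b))) := by rw [h3, mul_one]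
    _ = (t * (a * b)) * t * (a * b) * (t * (a * b)) := by group
    _ = (t * (a * b)) * (t * (a * b)) * (t * (a * b)) := by group
    _ = t * (a * b) := by rw [h3, one_mul]
    _ = (a * b) * (a * b) * (t * (a * b)) := by rw [h4, one_mul]
    _ = (a * b) * ((a * b) * t * (a * b)) := by group
    _ = (a * b) * t := by
      have h5 : (a * b) * t * (a * b) = t := by
        have h6 : (t * (a * b)) * (t * (a * b)) = 1 := h3
        calc (a * b) * t * (a * b) = t * (t * (a * b) * t * (a * b)) := by
              calc (a * b) * t * (a * b) = (t * t) * ((a * b) * t * (a * b)) := by rw [htt, one_mul]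
                _ = t * (t * ((a * b) * t * (a * b))) := by group
                _ = t * (t * (a * b) * t * (a * b)) := by group
          _ = t := by
            have : t * (a * b) * t * (a * b) = (t * (a * b)) * (t * (a * b)) := by group
            rw [this, h6, mul_one]
      rw [h5]

end three

section tri

variable {G : Type*} [Group G] [Finite G] {D : Set G}
variable {K : Type*} [Field K] [Fintype K] [hK : Fact (Fintype.card K = 4)]
variable {d₁ : G} {d₂ : Gd D d₁ ⧸ Subgroup.center (Gd D d₁)}

open scoped _root_.Classical in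
/-- Two commuting sets with the same product and few members are equal. -/
theorem set_eq (P : Pk4 D d₁ d₂ K) {S T : Finset G} (hSD : ∀ a ∈ S, a ∈ D) (hTD : ∀ a ∈ T, a ∈ D)
    (hc : ∀ a ∈ S ∪ T, ∀ b ∈ S ∪ T, Commute a b) (h : prd S = prd T) (hcard : S.card + T.card ≤ 6) : S = T := by
  have hR := Cfsg.Agent.S5398.sdiff_rel P.hG.1 hSD hTD hc h
  by_contra hne
  have hnon : ((S \ T) ∪ (T \ S)).Nonempty := by
    by_contra hcon
    rw [Finset.not_nonempty_iff_eq_empty] at hcon
    apply hne
    have h1 : S \ T = ∅ := by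
      apply Finset.eq_empty_of_forall_notMem
      intro a ha
      have : a ∈ (S \ T) ∪ (T \ S) := Finset.mem_union_left _ ha
      rw [hcon] at this
      simp at this
    have h2 : T \ S = ∅ := by
      apply Finset.eq_empty_of_forall_notMem
      intro a ha
      have : a ∈ (S \ T) ∪ (T \ S) := Finset.mem_union_right _ ha
      rw [hcon] at this
      simp at this
    exact Finset.Subset.antisymm (Finset.sdiff_eq_empty_iff_subset.1 h1) (Finset.sdiff_eq_empty_iff_subset.1 h2)
  have h7 : ((S \ T) ∪ (T \ S)).card ≤ S.card + T.card :=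
    (Finset.card_union_le _ _).trans (Nat.add_le_add (Finset.card_le_card Finset.sdiff_subset) (Finset.card_le_card Finset.sdiff_subset))
  refine no_rel_six P hR.toRel ?_ ?_
  · simpa using hnon.ne_empty
  · have : (((S \ T) ∪ (T \ S)).toList).length = ((S \ T) ∪ (T \ S)).card := by simp
    rw [this]
    omega

open scoped _root_.Classical in
/-- **The centralizer of the product permutes the three members.** -/
theorem conj_mem_T (P : Pk4 D d₁ d₂ K) {a b c g : G} (ha : a ∈ D) (hb : b ∈ D) (hc : c ∈ D) (hab : a ≠ b) (hac : a ≠ c) (hbc : b ≠ c)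
    (cab : Commute a b) (cac : Commute a c) (cbc : Commute b c) (hg : Commute g (a * b * c)) :
    ({g * a * g⁻¹, g * b * g⁻¹, g * c * g⁻¹} : Finset G) = {a, b, c} := by
  have hD := P.hG.1
  have hcj := P.hG.2.1
  set a' := g * a * g⁻¹ with ha'
  set b' := g * b * g⁻¹ with hb'
  set c' := g * c * g⁻¹ with hc'
  have hinj : ∀ {u v : G}, g * u * g⁻¹ = g * v * g⁻¹ → u = v := fun {u v} h => by simpa using h
  have ma : a' ∈ D := hcj g a ha
  have mb : b' ∈ D := hcj g b hb
  have mc : c' ∈ D := hcj g c hc
  have hab' : a' ≠ b' := fun h => hab (hinj h)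
  have hac' : a' ≠ c' := fun h => hac (hinj h)
  have hbc' : b' ≠ c' := fun h => hbc (hinj h)
  have cab' : Commute a' b' := cab.map (MulAut.conj g).toMonoidHom
  have cac' : Commute a' c' := cac.map (MulAut.conj g).toMonoidHom
  have cbc' : Commute b' c' := cbc.map (MulAut.conj g).toMonoidHom
  have hprod : a' * b' * c' = a * b * c := by
    have e : a' * b' * c' = g * (a * b * c) * g⁻¹ := by
      rw [ha', hb', hc']
      group
    rw [e, hg.eq]
    group
  have hcx : ∀ {u : G}, Commute u (a * b * c) → Commute (g * u * g⁻¹) (a * b * c) := by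
    intro u hu
    have h1 := hu.map (MulAut.conj g).toMonoidHom
    have e1 : (MulAut.conj g).toMonoidHom (a * b * c) = a * b * c := by
      show g * (a * b * c) * g⁻¹ = a * b * c
      rw [hg.eq]
      group
    rw [e1] at h1
    exact h1
  have xa : Commute a (a * b * c) := ((Commute.refl a).mul_right cab).mul_right cac
  have xb : Commute b (a * b * c) := (cab.symm.mul_right (Commute.refl b)).mul_right cbc
  have xc : Commute c (a * b * c) := (cac.symm.mul_right cbc.symm).mul_right (Commute.refl c)
  obtain ⟨a1, a2, a3⟩ := comm_three hD ha hb hc ma hab hac hbc cab cac cbc (hcx xa)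
  obtain ⟨b1, b2, b3⟩ := comm_three hD ha hb hc mb hab hac hbc cab cac cbc (hcx xb)
  obtain ⟨c1, c2, c3⟩ := comm_three hD ha hb hc mc hab hac hbc cab cac cbc (hcx xc)
  symm
  apply set_eq P
  · intro u hu
    simp only [Finset.mem_insert, Finset.mem_singleton] at hu
    rcases hu with rfl | rfl | rfl <;> assumption
  · intro u hu
    simp only [Finset.mem_insert, Finset.mem_singleton] at hu
    rcases hu with h | h | h
    · rw [h]; exact ma
    · rw [h]; exact mb
    · rw [h]; exact mc
  · intro u hu v hv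
    simp only [Finset.mem_union, Finset.mem_insert, Finset.mem_singleton] at hu hv
    have h0 : ∀ w ∈ ({a', b', c'} : Set G), ∀ z ∈ ({a, b, c} : Set G), Commute w z := by
      intro w hw z hz
      simp only [Set.mem_insert_iff, Set.mem_singleton_iff] at hw hz
      rcases hw with h | h | h <;> rcases hz with h' | h' | h' <;> rw [h, h'] <;> assumption
    have h1 : ∀ w ∈ ({a', b', c'} : Set G), ∀ z ∈ ({a', b', c'} : Set G), Commute w z := by
      intro w hw z hz
      simp only [Set.mem_insert_iff, Set.mem_singleton_iff] at hw hz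
      rcases hw with h | h | h <;> rcases hz with h' | h' | h' <;> rw [h, h'] <;>
        first | exact cab' | exact cac' | exact cbc' | exact cab'.symm | exact cac'.symm | exact cbc'.symm
    have h2 : ∀ w ∈ ({a, b, c} : Set G), ∀ z ∈ ({a, b, c} : Set G), Commute w z := by
      intro w hw z hz
      simp only [Set.mem_insert_iff, Set.mem_singleton_iff] at hw hz
      rcases hw with h | h | h <;> rcases hz with h' | h' | h' <;> rw [h, h'] <;>
        first | exact cab | exact cac | exact cbc | exact cab.symm | exact cac.symm | exact cbc.symm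
    have hu1 : u ∈ ({a, b, c} : Set G) ∨ u ∈ ({a', b', c'} : Set G) := by
      simpa only [Set.mem_insert_iff, Set.mem_singleton_iff, or_assoc] using hu
    have hv1 : v ∈ ({a, b, c} : Set G) ∨ v ∈ ({a', b', c'} : Set G) := by
      simpa only [Set.mem_insert_iff, Set.mem_singleton_iff, or_assoc] using hv
    rcases hu1 with hu2 | hu2 <;> rcases hv1 with hv2 | hv2
    · exact h2 u hu2 v hv2
    · exact (h0 v hv2 u hu2).symm
    · exact h0 u hu2 v hv2
    · exact h1 u hu2 v hv2
  · rw [prd_triple hab hac hbc cab cac cbc, prd_triple hab' hac' hbc' cab' cac' cbc', hprod]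
  · have h1 : ({a, b, c} : Finset G).card ≤ 3 := Finset.card_le_three
    have h2 : ({a', b', c'} : Finset G).card ≤ 3 := Finset.card_le_three
    omega

/-- **All ordered commuting triples are conjugate.** -/
theorem trans_triple (P : Pk4 D d₁ d₂ K) {a b c a' b' c' : G} (ha : a ∈ D) (hb : b ∈ D) (hc : c ∈ D) (hab : a ≠ b) (hac : a ≠ c) (hbc : b ≠ c)
    (cab : Commute a b) (cac : Commute a c) (cbc : Commute b c)
    (ha' : a' ∈ D) (hb' : b' ∈ D) (hc' : c' ∈ D) (hab' : a' ≠ b') (hac' : a' ≠ c') (hbc' : b' ≠ c')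
    (cab' : Commute a' b') (cac' : Commute a' c') (cbc' : Commute b' c') :
    ∃ g : G, g * a * g⁻¹ = a' ∧ g * b * g⁻¹ = b' ∧ g * c * g⁻¹ = c' := by
  have hD := P.hG.1
  have hcj := P.hG.2.1
  obtain ⟨g₁, hg₁⟩ := P.hp.1 a ha a' ha'
  have L := M24d.lw P ha'
  have m₁ : g₁ * b * g₁⁻¹ ∈ Da D a' := by
    have := mem_Da_conj hcj g₁ (show b ∈ Da D a from ⟨hb, hab.symm, cab⟩)
    rwa [hg₁] at this
  have m₂ : g₁ * c * g₁⁻¹ ∈ Da D a' := by
    have := mem_Da_conj hcj g₁ (show c ∈ Da D a from ⟨hc, hac.symm, cac⟩)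
    rwa [hg₁] at this
  have n₁ : b' ∈ Da D a' := ⟨hb', hab'.symm, cab'⟩
  have n₂ : c' ∈ Da D a' := ⟨hc', hac'.symm, cac'⟩
  have cm : Commute (g₁ * b * g₁⁻¹) (g₁ * c * g₁⁻¹) := cbc.map (MulAut.conj g₁).toMonoidHom
  have nm : g₁ * b * g₁⁻¹ ≠ g₁ * c * g₁⁻¹ := fun h => hbc (by simpa using h)
  obtain ⟨q₁, hq₁⟩ := L.hp.1 _ (phi_mem m₁) _ (phi_mem n₁)
  have h1 : phi D a' (g₁ * c * g₁⁻¹) ∈ Da (Dq D a') (phi D a' (g₁ * b * g₁⁻¹)) :=
    (phi_mem_Da hD L.hNC m₂ m₁).2 ⟨nm.symm, cm⟩
  have h2 := mem_Da_conj L.hG.2.1 q₁ h1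
  rw [hq₁] at h2
  have h3 : phi D a' c' ∈ Da (Dq D a') (phi D a' b') := (phi_mem_Da hD L.hNC n₂ n₁).2 ⟨hbc'.symm, cbc'⟩
  obtain ⟨q₂, hq₂, hq₂e⟩ := exists_conj_of_mem_Da L.hG L.hp (phi_mem n₁) h2 h3
  have hq₂c : Commute (phi D a' b') q₂ := commute_of_mem_closure (fun y hy => hy.2.2) hq₂
  obtain ⟨z, hz⟩ := QuotientGroup.mk_surjective (q₂ * q₁)
  have conj1 : (QuotientGroup.mk z : Gd D a' ⧸ Subgroup.center (Gd D a')) * phi D a' (g₁ * b * g₁⁻¹) * (QuotientGroup.mk z)⁻¹ = phi D a' b' := by
    rw [hz]
    calc q₂ * q₁ * phi D a' (g₁ * b * g₁⁻¹) * (q₂ * q₁)⁻¹ = q₂ * (q₁ * phi D a' (g₁ * b * g₁⁻¹) * q₁⁻¹) * q₂⁻¹ := by group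
      _ = q₂ * phi D a' b' * q₂⁻¹ := by rw [hq₁]
      _ = phi D a' b' := by rw [← hq₂c.eq]; group
  have conj2 : (QuotientGroup.mk z : Gd D a' ⧸ Subgroup.center (Gd D a')) * phi D a' (g₁ * c * g₁⁻¹) * (QuotientGroup.mk z)⁻¹ = phi D a' c' := by
    rw [hz, ← hq₂e]
    group
  have e1 : (z : G) * (g₁ * b * g₁⁻¹) * (z : G)⁻¹ = b' := by
    apply phi_inj hD L.hNC (PermComp.OutP.M23T.conj_mem_Da hcj m₁ z) n₁
    rw [PermComp.OutP.M23T.phi_conj' (Subgroup.subset_closure m₁), conj1]
  have e2 : (z : G) * (g₁ * c * g₁⁻¹) * (z : G)⁻¹ = c' := by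
    apply phi_inj hD L.hNC (PermComp.OutP.M23T.conj_mem_Da hcj m₂ z) n₂
    rw [PermComp.OutP.M23T.phi_conj' (Subgroup.subset_closure m₂), conj2]
  refine ⟨(z : G) * g₁, ?_, ?_, ?_⟩
  · have hzc := PermComp.OutP.M23T.commute_Y z
    calc (z : G) * g₁ * a * ((z : G) * g₁)⁻¹ = (z : G) * (g₁ * a * g₁⁻¹) * (z : G)⁻¹ := by group
      _ = a' := by rw [hg₁, ← hzc.eq]; group
  · rw [← e1]; group
  · rw [← e2]; group

end tri

section level

variable {G : Type*} [Group G] [Finite G] {D : Set G}
variable {K : Type*} [Field K] [Fintype K] [hK : Fact (Fintype.card K = 4)]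
variable {d₁ : G} {d₂ : Gd D d₁ ⧸ Subgroup.center (Gd D d₁)}

/-- The even part of the joint centralizer. -/
def K0 (a b c : G) : Subgroup G := commutator G ⊓ Subgroup.centralizer ({a, b, c} : Set G)

theorem mem_K0 {a b c x : G} : x ∈ K0 a b c ↔ x ∈ commutator G ∧ Commute a x ∧ Commute b x ∧ Commute c x := by
  rw [K0, Subgroup.mem_inf, Subgroup.mem_centralizer_iff]
  constructor
  · rintro ⟨h0, h⟩
    exact ⟨h0, h a (by simp), h b (by simp), h c (by simp)⟩
  · rintro ⟨h0, h1, h2, h3⟩
    refine ⟨h0, ?_⟩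
    intro y hy
    simp only [Set.mem_insert_iff, Set.mem_singleton_iff] at hy
    rcases hy with rfl | rfl | rfl
    · exact h1
    · exact h2
    · exact h3

/-- An element of `⟨D_a⟩` whose image commutes with the image of `b` commutes with `b`. -/
theorem lift_fix' (hD : IsThreeTranspositionSet D) (hcj : ∀ g : G, ∀ e ∈ D, g * e * g⁻¹ ∈ D) {a b : G} (hNC : NoCentral D a)
    (hb : b ∈ Da D a) (z : Gd D a)
    (h : Commute (QuotientGroup.mk z : Gd D a ⧸ Subgroup.center (Gd D a)) (phi D a b)) : Commute b (z : G) := by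
  have h1 := PermComp.OutP.M23T.conj_mem_Da hcj hb z
  have h2 : phi D a ((z : G) * b * (z : G)⁻¹) = phi D a b := by
    rw [PermComp.OutP.M23T.phi_conj' (Subgroup.subset_closure hb), h.eq]
    group
  have h3 := phi_inj hD hNC h1 hb h2
  show b * (z : G) = (z : G) * b
  calc b * (z : G) = ((z : G) * b * (z : G)⁻¹) * (z : G) := by rw [h3]
    _ = (z : G) * b := by group

variable (hL : (commutator G).index = 2) (hDL : ∀ d ∈ D, d ∉ commutator G)
  (hcent : ∀ d ∈ D, Subgroup.closure (Da D d) = Subgroup.centralizer ({d} : Set G))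
  (hdm : ∀ d ∈ D, d ∈ Subgroup.closure (Da D d))

include hcent in
theorem K0_le {a b c : G} (ha : a ∈ D) : K0 a b c ≤ Subgroup.closure (Da D a) := by
  intro x hx
  rw [hcent a ha, Subgroup.mem_centralizer_singleton_iff]
  exact ((mem_K0.1 hx).2.1).eq.symm

/-- The map to the level below. -/
noncomputable def rho0 (hcent : ∀ d ∈ D, Subgroup.closure (Da D d) = Subgroup.centralizer ({d} : Set G)) {a : G} (ha : a ∈ D) (b c : G) :
    K0 a b c →* Gd D a ⧸ Subgroup.center (Gd D a) :=
  (QuotientGroup.mk' (Subgroup.center (Gd D a))).comp (Subgroup.inclusion (K0_le hcent ha))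

theorem rho0_eq (hcent : ∀ d ∈ D, Subgroup.closure (Da D d) = Subgroup.centralizer ({d} : Set G)) {a : G} (ha : a ∈ D) (b c : G) (x : K0 a b c) :
    rho0 hcent ha b c x = phi D a (x : G) := (phi_eq_of_coe rfl).symm

/-- The map to the centralizer at the level below. -/
noncomputable def rho (hcent : ∀ d ∈ D, Subgroup.closure (Da D d) = Subgroup.centralizer ({d} : Set G)) {a b c : G} (ha : a ∈ D)
    (hb : b ∈ Da D a) (hc : c ∈ Da D a) : K0 a b c →* Subgroup.centralizer ({phi D a b, phi D a c} : Set (Gd D a ⧸ Subgroup.center (Gd D a))) :=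
  (rho0 hcent ha b c).codRestrict _ (fun x => by
    rw [rho0_eq]
    have hx := K0_le hcent ha x.2
    rw [PermComp.OutP.M23T.mem_K]
    exact ⟨M24d.phi_commute (Subgroup.subset_closure hb) hx (mem_K0.1 x.2).2.2.1,
      M24d.phi_commute (Subgroup.subset_closure hc) hx (mem_K0.1 x.2).2.2.2⟩)

theorem rho_coe (hcent : ∀ d ∈ D, Subgroup.closure (Da D d) = Subgroup.centralizer ({d} : Set G)) {a b c : G} (ha : a ∈ D)
    (hb : b ∈ Da D a) (hc : c ∈ Da D a) (x : K0 a b c) : (rho hcent ha hb hc x : Gd D a ⧸ Subgroup.center (Gd D a)) = phi D a (x : G) :=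
  rho0_eq hcent ha b c x

include hL hDL hdm in
theorem rho_bij (P : Pk4 D d₁ d₂ K) (hcent : ∀ d ∈ D, Subgroup.closure (Da D d) = Subgroup.centralizer ({d} : Set G)) {a b c : G} (ha : a ∈ D)
    (hb : b ∈ Da D a) (hc : c ∈ Da D a) : Function.Bijective (rho hcent ha hb hc) := by
  have hD := P.hG.1
  have hcj := P.hG.2.1
  have Lw := M24d.lw P ha
  constructor
  · rw [injective_iff_map_eq_one]
    intro x hx
    have h1 : phi D a (x : G) = 1 := by
      rw [← rho_coe hcent ha hb hc, hx]
      rfl
    apply Subtype.ext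
    rcases M24d.eq_of_phi_one' P ha (K0_le hcent ha x.2) h1 with h2 | h2
    · exact h2
    · exfalso
      apply hDL a ha
      rw [← h2]
      exact (mem_K0.1 x.2).1
  · rintro ⟨ξ, hξ⟩
    obtain ⟨z, rfl⟩ := QuotientGroup.mk_surjective ξ
    rw [PermComp.OutP.M23T.mem_K] at hξ
    have hza := PermComp.OutP.M23T.commute_Y z
    have hzb := lift_fix' hD hcj Lw.hNC hb z hξ.1.symm
    have hzc := lift_fix' hD hcj Lw.hNC hc z hξ.2.symm
    have hab : Commute a b := hb.2.2
    have hac : Commute a c := hc.2.2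
    have haz : a ∈ Subgroup.closure (Da D a) := hdm a ha
    have hcen : (⟨a, haz⟩ : Gd D a) ∈ Subgroup.center (Gd D a) := by
      rw [Subgroup.mem_center_iff]
      intro y
      apply Subtype.ext
      show (y : G) * a = a * (y : G)
      exact (PermComp.OutP.M23T.commute_Y y).symm.eq
    by_cases hzL : (z : G) ∈ commutator G
    · refine ⟨⟨z, mem_K0.2 ⟨hzL, hza, hzb, hzc⟩⟩, ?_⟩
      apply Subtype.ext
      rw [rho_coe]
      exact phi_eq_of_coe rfl
    · have hm : (z : G) * a ∈ commutator G := by
        rw [Subgroup.mul_mem_iff_of_index_two hL]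
        simp only [hzL, hDL a ha, iff_self]
      refine ⟨⟨(z : G) * a, mem_K0.2 ⟨hm, hza.mul_right (Commute.refl a), hzb.mul_right hab.symm, hzc.mul_right hac.symm⟩⟩, ?_⟩
      apply Subtype.ext
      rw [rho_coe]
      have e : phi D a ((z : G) * a) = QuotientGroup.mk (z * ⟨a, haz⟩) := phi_eq_of_coe rfl
      show phi D a ((z : G) * a) = _
      rw [e, QuotientGroup.mk_mul]
      have e2 : (QuotientGroup.mk (⟨a, haz⟩ : Gd D a) : Gd D a ⧸ Subgroup.center (Gd D a)) = 1 := (QuotientGroup.eq_one_iff _).2 hcen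
      rw [e2, mul_one]

/-- The isomorphism with the centralizer at the level below. -/
noncomputable def rhoE (P : Pk4 D d₁ d₂ K) (hL : (commutator G).index = 2) (hDL : ∀ d ∈ D, d ∉ commutator G)
    (hcent : ∀ d ∈ D, Subgroup.closure (Da D d) = Subgroup.centralizer ({d} : Set G))
    (hdm : ∀ d ∈ D, d ∈ Subgroup.closure (Da D d)) {a b c : G} (ha : a ∈ D)
    (hb : b ∈ Da D a) (hc : c ∈ Da D a) :
    K0 a b c ≃* Subgroup.centralizer ({phi D a b, phi D a c} : Set (Gd D a ⧸ Subgroup.center (Gd D a))) :=
  MulEquiv.ofBijective (rho hcent ha hb hc) (rho_bij hL hDL hdm P hcent ha hb hc)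

end level

section gfit

open Cfsg.Agent.Lib.Components.Basic

/-- A quasisimple normal subgroup containing its centralizer is the generalized Fitting subgroup. -/
theorem gFit_quasi {X : Type*} [Group X] [Finite X] (N : Subgroup X) (hN : N.Normal) (hq : IsQuasisimple N)
    (hC : ∀ x : X, (∀ y ∈ N, Commute x y) → x ∈ N) : generalizedFittingSubgroup X = N := by
  have hcomp : IsComponent N := ⟨hN.isSubnormal, hq⟩
  have hlay : layer X = N := by
    apply le_antisymm
    · apply sSup_le
      intro K' hK'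
      rcases component_eq_or_commutator_eq_bot hK' hcomp with h | h
      · rw [h]
      · intro x hx
        apply hC
        intro y hy
        have h3 : ⁅x, y⁆ ∈ ⁅K', N⁆ := Subgroup.commutator_mem_commutator hx hy
        rw [h] at h3
        exact commutatorElement_eq_one_iff_commute.1 (Subgroup.mem_bot.1 h3)
    · exact le_sSup hcomp
  have hc := commutator_layer_fitting (G := X)
  rw [hlay] at hc
  unfold generalizedFittingSubgroup
  rw [hlay]
  refine sup_eq_left.2 fun x hx => hC x fun y hy => ?_
  have h3 : ⁅y, x⁆ ∈ ⁅N, fittingSubgroup X⁆ := Subgroup.commutator_mem_commutator hy hx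
  rw [hc] at h3
  exact (commutatorElement_eq_one_iff_commute.1 (Subgroup.mem_bot.1 h3)).symm

end gfit

end Cfsg.Agent.Lib.ThreeT.F24.C3
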